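import Cfsg.Agent.H439.CC.Defs
import Cfsg.Agent.H360.CC.ParRgd
import Cfsg.Agent.Nodes.WittInst
import Cfsg.Agent.KFacts.RgdRigid

/-!
# S4884, classical rows in cross characteristic, piece (C) for `PΩ⁺` (helper557)

* `desc` : automorphisms of `G` act on a quotient by the centre;
* `par2_of` : `Par2` from helper360's `parity`;
* `sgL` : the sign changes of the Witt frame; `par2_plus` : **`Par2` for the frame `rgdD_model` of `PΩ⁺`**.
-/

set_option autoImplicit false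
set_option linter.unusedSectionVars false

namespace Cfsg.Agent.H557.CC

open Cfsg Cfsg.Agent.H439.CC Cfsg.Agent.Nodes.BNOf Cfsg.Agent.Nodes.Bruhat
open Cfsg.Agent.ChevalleyStructure.CoxeterGeom Cfsg.Agent.Tits.Roots

/-! ### automorphisms of a quotient by the centre -/

section Desc

variable {G K : Type*} [Group G] [Group K] {φ : G →* K} (hφ : Function.Surjective φ)
  (hk : ∀ g, φ g = 1 ↔ g ∈ Subgroup.center G)

include hk in
theorem desc_aux (α : MulAut G) {g g' : G} (h : φ g = φ g') : φ (α g) = φ (α g') := by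
  have h1 : φ (g⁻¹ * g') = 1 := by rw [map_mul, map_inv, h, inv_mul_cancel]
  have h2 : α (g⁻¹ * g') ∈ Subgroup.center G := by
    rw [hk, Subgroup.mem_center_iff] at h1
    rw [Subgroup.mem_center_iff]
    intro x
    have h3 := congrArg α (h1 (α⁻¹ x))
    rwa [map_mul α (α⁻¹ x), map_mul α (g⁻¹ * g'), MulAut.apply_inv_self] at h3
  have h3 := (hk _).2 h2
  rw [map_mul, map_inv, map_mul, map_inv, inv_mul_eq_one] at h3
  exact h3

/-- automorphisms act on the quotient by the centre -/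
noncomputable def desc : MulAut G →* MulAut K where
  toFun α :=
    { toFun := fun k => φ (α (Function.surjInv hφ k))
      invFun := fun k => φ (α⁻¹ (Function.surjInv hφ k))
      left_inv := fun k => by
        have h1 := desc_aux hk α⁻¹ (Function.surjInv_eq hφ (φ (α (Function.surjInv hφ k))))
        rw [MulAut.inv_apply_self, Function.surjInv_eq hφ] at h1
        exact h1
      right_inv := fun k => by
        have h1 := desc_aux hk α (Function.surjInv_eq hφ (φ (α⁻¹ (Function.surjInv hφ k))))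
        rw [MulAut.apply_inv_self, Function.surjInv_eq hφ] at h1
        exact h1
      map_mul' := fun a b => by
        rw [← map_mul, ← map_mul]
        refine desc_aux hk α ?_
        rw [Function.surjInv_eq hφ, map_mul, Function.surjInv_eq hφ, Function.surjInv_eq hφ] }
  map_one' := by
    ext k
    exact Function.surjInv_eq hφ k
  map_mul' α β := by
    ext k
    have h1 := desc_aux hk α (Function.surjInv_eq hφ (φ (β (Function.surjInv hφ k))))
    exact h1.symm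

theorem desc_apply (α : MulAut G) (g : G) : desc hφ hk α (φ g) = φ (α g) :=
  desc_aux hk α (Function.surjInv_eq hφ (φ g))

end Desc

/-! ### the adapter -/

theorem par2_of {I W : Type*} {Y : Type*} [Fintype I] [DecidableEq I] [Group W] [Group Y] {M : CoxeterMatrix I}
    {cs : CoxeterSystem M W} {A : I → I → ℤ} {h : IsCartan M A} {p : ℕ} {T : Subgroup Y} {n : I → Y}
    {X : (I → ℤ) → Subgroup Y} [Finite W] [Finite Y] [Fact p.Prime] (hp2 : p ≠ 2) (R : RGD cs h p T n X)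
    (hG : GG cs h T X = ⊤) {E : Type*} [Group E] (hE : IsPGroup 2 E) (f : E →* MulAut Y)
    (hX : ∀ e z, IsRoot cs h z → ∀ x ∈ X z, f e x ∈ X z) (hT : ∀ e, ∀ t ∈ T, f e t ∈ T)
    (hfix : ∀ z, IsRoot cs h z → 0 ≤ z → ∀ x ∈ X z, (∀ e, f e x = x) → x = 1) : Par2 cs h T X := by
  classical
  intro χ hχ
  have := Fintype.ofFinite (RGD.B cs h T X)
  have hB : (Nat.card (RGD.B cs h T X) : ℂ) ≠ 0 := by exact_mod_cast Nat.card_pos.ne'
  unfold mu at hχ ⊢
  rw [finsum_eq_sum_of_fintype] at hχ ⊢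
  obtain ⟨m, hm, hiff⟩ := H360.CC.parity hp2 R hG hE f hX hT hfix χ.2 (right_ne_zero_of_mul hχ)
  refine ⟨m, ?_, hiff⟩
  have e1 : ∑ x : RGD.B cs h T X, (χ : Y → ℂ) x = (Nat.card (RGD.B cs h T X) : ℂ) * m := hm
  rw [e1, inv_mul_cancel_left₀ hB]

/-! ### sign changes -/

section Sign

variable {m : ℕ} {F : Type*} [Field F]

/-- the value of a sign -/
def sv (F : Type*) [Field F] (u : ℤˣ) : F := ((u : ℤ) : F)

theorem sv_mul (u v : ℤˣ) : sv F (u * v) = sv F u * sv F v := by simp [sv]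

theorem sv_self (u : ℤˣ) : sv F u * sv F u = 1 := by
  rw [← sv_mul, Int.units_mul_self]
  simp [sv]

theorem sv_ne (u : ℤˣ) : sv F u ≠ 0 := fun h => by
  have h1 := sv_self (F := F) u
  rw [h, zero_mul] at h1
  exact zero_ne_one h1

/-- the index of the pair -/
def ix (j : Fin m ⊕ Fin m) : Fin m := j.elim id id

/-- the sign changes -/
def sgL (m : ℕ) (F : Type*) [Field F] : (Fin m → ℤˣ) →* ((Fin m ⊕ Fin m → F) ≃ₗ[F] (Fin m ⊕ Fin m → F)) where
  toFun ε :=
    { toFun := fun v j => sv F (ε (ix j)) * v j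
      map_add' := fun v w => funext fun j => mul_add _ _ _
      map_smul' := fun c v => funext fun j => by
        show sv F (ε (ix j)) * (c * v j) = c * (sv F (ε (ix j)) * v j)
        ring
      invFun := fun v j => sv F (ε (ix j)) * v j
      left_inv := fun v => funext fun j => by
        show sv F (ε (ix j)) * (sv F (ε (ix j)) * v j) = v j
        rw [← mul_assoc, sv_self, one_mul]
      right_inv := fun v => funext fun j => by
        show sv F (ε (ix j)) * (sv F (ε (ix j)) * v j) = v j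
        rw [← mul_assoc, sv_self, one_mul] }
  map_one' := by
    ext v j
    show sv F 1 * _ = _
    simp [sv]
  map_mul' ε δ := by
    refine LinearEquiv.ext fun v => funext fun j => ?_
    show sv F (ε (ix j) * δ (ix j)) * v j = sv F (ε (ix j)) * (sv F (δ (ix j)) * v j)
    rw [sv_mul, mul_assoc]

theorem sgL_apply (ε : Fin m → ℤˣ) (v : Fin m ⊕ Fin m → F) (j : Fin m ⊕ Fin m) :
    sgL m F ε v j = sv F (ε (ix j)) * v j := rfl

end Sign

/-! ### `PΩ⁺` -/

section Plus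

open QuadraticMap
open Cfsg.Agent.LieClassical Cfsg.Agent.LieClassical.OrthCore Cfsg.Agent.LieClassical.OrthSimple
  Cfsg.Agent.LieClassical.OrthForms
open Cfsg.Agent.TitsThree Cfsg.Agent.TitsThree.Siegel Cfsg.Agent.TitsThree.WittFrame Cfsg.Agent.TitsThree.WBridge
  Cfsg.Agent.TitsThree.WittWeyl Cfsg.Agent.TitsThree.KSideO
open Cfsg.Agent.Nodes.WittRoot Cfsg.Agent.Nodes.WittInst Cfsg.Agent.Nodes.TypeD
open Cfsg.Agent.Nodes.TypeC (wt ng)
open Cfsg.Agent.Nodes.WittRGD (Tor)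

variable {m : ℕ} {F : Type*} [Field F]

theorem sgL_mem_O (ε : Fin m → ℤˣ) : sgL m F ε ∈ O (plusForm m F) := by
  intro v
  rw [coe_plusForm, quadFormPlus_apply, quadFormPlus_apply]
  refine Finset.sum_congr rfl fun i _ => ?_
  rw [sgL_apply, sgL_apply]
  show sv F (ε i) * v (Sum.inl i) * (sv F (ε i) * v (Sum.inr i)) = _
  linear_combination (v (Sum.inl i) * v (Sum.inr i)) * sv_self (F := F) (ε i)

theorem sgL_b (ε : Fin m → ℤˣ) (x : Fin m × Bool) :
    sgL m F ε ((toFrame (wplus m F)).b x) = sv F (ε x.1) • (toFrame (wplus m F)).b x := by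
  obtain ⟨i, b⟩ := x
  cases b
  · show sgL m F ε (Pi.single (Sum.inr i) 1) = sv F (ε i) • Pi.single (Sum.inr i) 1
    funext j
    rw [sgL_apply, Pi.smul_apply, smul_eq_mul]
    by_cases h : j = Sum.inr i
    · subst h; rfl
    · rw [Pi.single_eq_of_ne h, mul_zero, mul_zero]
  · show sgL m F ε (Pi.single (Sum.inl i) 1) = sv F (ε i) • Pi.single (Sum.inl i) 1
    funext j
    rw [sgL_apply, Pi.smul_apply, smul_eq_mul]
    by_cases h : j = Sum.inl i
    · subst h; rfl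
    · rw [Pi.single_eq_of_ne h, mul_zero, mul_zero]

theorem sgL_mono (ε : Fin m → ℤˣ) : Mono (toFrame (wplus m F)) (sgL m F ε) id :=
  fun x => ⟨_, sv_ne _, sgL_b ε x⟩

theorem sgL_iso (ε : Fin m → ℤˣ) : (HO (plusForm m F)).IsIso (sgL m F ε) :=
  fun v w => polar_map (sgL_mem_O ε) v w

/-- the sign changes normalize `Ω` -/
theorem sgL_mem_normalizer (ε : Fin m → ℤˣ) :
    sgL m F ε ∈ Subgroup.normalizer (E (plusForm m F) : Set ((Fin m ⊕ Fin m → F) ≃ₗ[F] (Fin m ⊕ Fin m → F))) := by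
  rw [Subgroup.mem_normalizer_iff]
  intro g
  refine ⟨fun hg => conj_mem_E (sgL_mem_O ε) hg, fun hg => ?_⟩
  have h1 := conj_mem_E (inv_mem (sgL_mem_O ε)) hg
  have h2 : (sgL m F ε)⁻¹ * (sgL m F ε * g * (sgL m F ε)⁻¹) * (sgL m F ε)⁻¹⁻¹ = g := by group
  rwa [h2] at h1

/-- the sign changes as automorphisms of `Ω` -/
noncomputable def sgE (m : ℕ) (F : Type*) [Field F] : (Fin m → ℤˣ) →* MulAut ↥(E (plusForm m F)) :=
  (E (plusForm m F)).normalizerMonoidHom.comp ((sgL m F).codRestrict _ sgL_mem_normalizer)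

theorem coe_sgE (ε : Fin m → ℤˣ) (g : ↥(E (plusForm m F))) :
    ((sgE m F ε g : ↥(E (plusForm m F))) : (Fin m ⊕ Fin m → F) ≃ₗ[F] (Fin m ⊕ Fin m → F)) =
      sgL m F ε * g * (sgL m F ε)⁻¹ := rfl

theorem sgL_X (ε : Fin m → ℤˣ) {x y : Fin m × Bool} (h : x.1 ≠ y.1) (t : F) :
    sgL m F ε * (toFrame (wplus m F)).X x y t * (sgL m F ε)⁻¹ =
      (toFrame (wplus m F)).X x y (sv F (ε x.1) * sv F (ε y.1) * t) := by
  rw [conj_X _ (sgL_iso ε) h h (sgL_b ε x) (sgL_b ε y)]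
  congr 1
  have h1 : (HO (plusForm m F)).σ (sv F (ε y.1)) = sv F (ε y.1) := rfl
  rw [h1, mul_assoc (sv F (ε x.1) * sv F (ε y.1)), inv_mul_cancel₀ ((toFrame (wplus m F)).η_ne y), mul_one]

theorem ker_toPOmega_iff {Q : QuadraticForm F (Fin m ⊕ Fin m → F)} (hG : OrthTrans.Good Q) (g : ↥(E Q)) :
    toPOmega hG g = 1 ↔ g ∈ Subgroup.center ↥(E Q) := by
  refine ⟨center_of_toPOmega hG, fun h => ?_⟩
  show QuotientGroup.mk' (Subgroup.center (Cfsg.Omega F ⇑Q)) (toOmega hG g) = 1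
  rw [QuotientGroup.mk'_apply, QuotientGroup.eq_one_iff, Subgroup.mem_center_iff]
  intro k
  obtain ⟨k, rfl⟩ := (toOmega hG).surjective k
  rw [← map_mul, ← map_mul, (Subgroup.mem_center_iff.1 h) k]

variable {n : ℕ}

/-- **piece (C) for `PΩ⁺`** -/
theorem par2_plus [Finite F] (hG : OrthTrans.Good (plusForm (n + 2) F)) {p : ℕ} [Fact p.Prime] [CharP F p] (hp2 : p ≠ 2)
    {G : Type*} [Group G] (cs : CoxeterSystem (Nodes.TypeD.M n) G) :
    Par2 cs (Nodes.TypeD.isCartan n)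
      (((Tor (toFrame (wplus (n + 2) F)) (E (plusForm (n + 2) F))).subgroupOf (E (plusForm (n + 2) F))).map
        (toPOmega hG)) (XD (wplus (n + 2) F) (toPOmega hG)) := by
  classical
  have R := rgdD_model (wplus (n + 2) F) hG (amb_plus _) (adm_plus _) (p := p) cs
  have hW : Finite G := Nodes.TypeD.finite_W cs
  have hfin : Finite (Cfsg.POmega F ⇑(plusForm (n + 2) F)) := inferInstance
  have hG1 := G1D_eq_top (wplus (n + 2) F) (toPOmega hG) (toPOmega_surjective hG) (adm_plus _) cs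
  have hk := ker_toPOmega_iff hG
  set f : (Fin (n + 2) → ℤˣ) →* MulAut (Cfsg.POmega F ⇑(plusForm (n + 2) F)) :=
    (desc (toPOmega_surjective hG) hk).comp (sgE (n + 2) F) with hf
  have hfa : ∀ ε g, f ε (toPOmega hG g) = toPOmega hG (sgE (n + 2) F ε g) := fun ε g =>
    desc_apply (toPOmega_surjective hG) hk _ g
  have hE : IsPGroup 2 (Fin (n + 2) → ℤˣ) := by
    intro ε
    refine ⟨1, ?_⟩
    rw [pow_one, pow_two]
    funext i
    exact Int.units_mul_self _
  -- the root elements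
  have hroot : ∀ ε z, IsRoot cs (Nodes.TypeD.isCartan n) z → ∀ x ∈ XD (wplus (n + 2) F) (toPOmega hG) z,
      ∃ a b : Fin (n + 2) × Bool, a.1 ≠ b.1 ∧ ee z = wt a + wt b ∧ ∃ (t : F) (g : ↥(E (plusForm (n + 2) F))),
        (g : (Fin (n + 2) ⊕ Fin (n + 2) → F) ≃ₗ[F] (Fin (n + 2) ⊕ Fin (n + 2) → F)) =
          (toFrame (wplus (n + 2) F)).X a b t ∧ x = toPOmega hG g ∧
        ((sgE (n + 2) F ε g : ↥(E (plusForm (n + 2) F))) :
          (Fin (n + 2) ⊕ Fin (n + 2) → F) ≃ₗ[F] (Fin (n + 2) ⊕ Fin (n + 2) → F)) =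
          (toFrame (wplus (n + 2) F)).X a b (sv F (ε a.1) * sv F (ε b.1) * t) := by
    intro ε z hz x hx
    obtain ⟨a, b, hab, e⟩ := exists_of_isRoot (cs := cs) hz
    obtain ⟨g, hg, rfl⟩ := hx
    have h1 : (g : (Fin (n + 2) ⊕ Fin (n + 2) → F) ≃ₗ[F] (Fin (n + 2) ⊕ Fin (n + 2) → F)) ∈
        Nodes.WittRGDD.rg (toFrame (wplus (n + 2) F)) z := hg
    rw [Nodes.WittRGDD.rg_eq _ hab e] at h1
    obtain ⟨t, ht⟩ := h1
    refine ⟨a, b, hab, e, t, g, ht, rfl, ?_⟩
    rw [coe_sgE, ht, sgL_X ε hab]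
  refine par2_of hp2 R (KFacts.RgdRigid.GG_eq_top hG1) hE f ?_ ?_ ?_
  · intro ε z hz x hx
    obtain ⟨a, b, hab, e, t, g, hg, rfl, hg'⟩ := hroot ε z hz x hx
    rw [hfa]
    refine ⟨_, ?_, rfl⟩
    show ((sgE (n + 2) F ε g : ↥(E (plusForm (n + 2) F))) :
      (Fin (n + 2) ⊕ Fin (n + 2) → F) ≃ₗ[F] (Fin (n + 2) ⊕ Fin (n + 2) → F)) ∈
        Nodes.WittRGDD.rg (toFrame (wplus (n + 2) F)) z
    rw [hg']
    rw [Nodes.WittRGDD.rg_eq _ hab e]
    exact ⟨_, rfl⟩
  · rintro ε _ ⟨g, hg, rfl⟩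
    rw [hfa]
    refine ⟨_, ?_, rfl⟩
    have h1 : (g : (Fin (n + 2) ⊕ Fin (n + 2) → F) ≃ₗ[F] (Fin (n + 2) ⊕ Fin (n + 2) → F)) ∈
        Tor (toFrame (wplus (n + 2) F)) (E (plusForm (n + 2) F)) := hg
    refine ⟨(sgE (n + 2) F ε g).2, ?_⟩
    show Mono (toFrame (wplus (n + 2) F)) (sgL (n + 2) F ε * g * (sgL (n + 2) F ε)⁻¹) id
    exact ((sgL_mono ε).mul h1.2).mul ((sgL_mono ε).inv fun _ => rfl)
  · intro z hz h0 x hx hfx
    obtain ⟨a, b, hab, -, t, g, hg, rfl, -⟩ := hroot 1 z hz x hx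
    set ε : Fin (n + 2) → ℤˣ := fun i => if i = a.1 then -1 else 1 with hε
    have h1 : sgE (n + 2) F ε g = g⁻¹ := by
      apply Subtype.ext
      rw [coe_sgE, hg, sgL_X ε hab, Subgroup.coe_inv, hg, ← Frame.X_neg]
      congr 1
      have e1 : sv F (ε a.1) = -1 := by simp [hε, sv]
      have e2 : sv F (ε b.1) = 1 := by simp [hε, sv, hab.symm]
      rw [e1, e2]
      ring
    have h2 := hfx ε
    rw [hfa, h1, map_inv] at h2
    have h3 : toPOmega hG g ^ 2 = 1 := by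
      rw [pow_two]
      nth_rw 1 [← h2]
      exact inv_mul_cancel _
    have h7 : IsPGroup p ↥(RGD.Sup (XD (wplus (n + 2) F) (toPOmega hG)) {z}) :=
      R.isPGroup_of_pos fun y hy => by rw [Set.mem_singleton_iff.1 hy]; exact ⟨hz, h0⟩
    obtain ⟨k, hk⟩ := h7 ⟨_, RGD.le_Sup (S := {z}) rfl hx⟩
    have h4 : toPOmega hG g ^ p ^ k = 1 := congrArg Subtype.val hk
    have h5 := Nat.dvd_gcd (orderOf_dvd_of_pow_eq_one h3) (orderOf_dvd_of_pow_eq_one h4)
    have h6 : Nat.Coprime 2 (p ^ k) :=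
      Nat.Coprime.pow_right k ((Nat.coprime_primes Nat.prime_two Fact.out).2 (Ne.symm hp2))
    rw [Nat.Coprime.gcd_eq_one h6, Nat.dvd_one, orderOf_eq_one_iff] at h5
    exact h5

end Plus

end Cfsg.Agent.H557.CC
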